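import Cfsg.Agent.Lib.Helper94.SpGen2.Torus

set_option autoImplicit false
set_option linter.unusedSectionVars false
set_option linter.unusedSimpArgs false

namespace Cfsg.Agent.Lib.Helper94.SpGen2

open Cfsg Cfsg.Geo Cfsg.Agent.Lib.Helper94
open scoped MatrixGroups Matrix

variable {F : Type*} [Field F] {n : ℕ}

/-- The block map `e_j ↦ f_j`, `f_j ↦ -e_j + τ f_j` for `j ≠ 0`, fixing `e_0` and `f_0`. -/
def s0Lin (n : ℕ) (τ : F) :
    (Fin (n + 1) ⊕ Fin (n + 1) → F) →ₗ[F] (Fin (n + 1) ⊕ Fin (n + 1) → F) where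
  toFun z := Sum.elim
    (fun j => if j = 0 then z (Sum.inl 0) else z (Sum.inr j) + τ * z (Sum.inl j))
    (fun j => if j = 0 then z (Sum.inr 0) else - z (Sum.inl j))
  map_add' x y := by
    funext idx
    rcases idx with j | j <;> by_cases hj : j = 0 <;> simp [hj] <;> ring
  map_smul' c x := by
    funext idx
    rcases idx with j | j <;> by_cases hj : j = 0 <;> simp [hj] <;> ring

/-- Its inverse. -/
def s0InvLin (n : ℕ) (τ : F) :
    (Fin (n + 1) ⊕ Fin (n + 1) → F) →ₗ[F] (Fin (n + 1) ⊕ Fin (n + 1) → F) where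
  toFun z := Sum.elim
    (fun j => if j = 0 then z (Sum.inl 0) else - z (Sum.inr j))
    (fun j => if j = 0 then z (Sum.inr 0) else z (Sum.inl j) + τ * z (Sum.inr j))
  map_add' x y := by
    funext idx
    rcases idx with j | j <;> by_cases hj : j = 0 <;> simp [hj] <;> ring
  map_smul' c x := by
    funext idx
    rcases idx with j | j <;> by_cases hj : j = 0 <;> simp [hj] <;> ring

lemma s0Lin_inl (τ : F) (z : Fin (n + 1) ⊕ Fin (n + 1) → F) (j : Fin (n + 1)) :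
    s0Lin n τ z (Sum.inl j)
      = if j = 0 then z (Sum.inl 0) else z (Sum.inr j) + τ * z (Sum.inl j) := rfl

lemma s0Lin_inr (τ : F) (z : Fin (n + 1) ⊕ Fin (n + 1) → F) (j : Fin (n + 1)) :
    s0Lin n τ z (Sum.inr j) = if j = 0 then z (Sum.inr 0) else - z (Sum.inl j) := rfl

lemma s0InvLin_inl (τ : F) (z : Fin (n + 1) ⊕ Fin (n + 1) → F) (j : Fin (n + 1)) :
    s0InvLin n τ z (Sum.inl j) = if j = 0 then z (Sum.inl 0) else - z (Sum.inr j) := rfl

lemma s0InvLin_inr (τ : F) (z : Fin (n + 1) ⊕ Fin (n + 1) → F) (j : Fin (n + 1)) :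
    s0InvLin n τ z (Sum.inr j)
      = if j = 0 then z (Sum.inr 0) else z (Sum.inl j) + τ * z (Sum.inr j) := rfl

/-- The block map as an invertible matrix. -/
noncomputable def s0GL (n : ℕ) (τ : F) : GL (Fin (n + 1) ⊕ Fin (n + 1)) F :=
  glOfLin (s0Lin n τ) (s0InvLin n τ)
    (by
      apply LinearMap.ext
      intro z
      funext idx
      rcases idx with j | j <;> by_cases hj : j = 0 <;>
        simp [s0Lin_inl, s0Lin_inr, s0InvLin_inl, s0InvLin_inr, hj])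
    (by
      apply LinearMap.ext
      intro z
      funext idx
      rcases idx with j | j <;> by_cases hj : j = 0 <;>
        simp [s0Lin_inl, s0Lin_inr, s0InvLin_inl, s0InvLin_inr, hj])

lemma s0GL_mulVec (τ : F) (z : Fin (n + 1) ⊕ Fin (n + 1) → F) :
    ((s0GL n τ : GL (Fin (n + 1) ⊕ Fin (n + 1)) F) :
      Matrix (Fin (n + 1) ⊕ Fin (n + 1)) (Fin (n + 1) ⊕ Fin (n + 1)) F) *ᵥ z = s0Lin n τ z := by
  rw [s0GL, glOfLin_mulVec]

theorem s0GL_mem (τ : F) : s0GL n τ ∈ spGL (n + 1) F := by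
  rw [mem_spGL_iff]
  intro x y
  rw [s0GL_mulVec, s0GL_mulVec, sf_eq, sf_eq]
  apply Finset.sum_congr rfl
  intro j _
  by_cases hj : j = 0
  · simp [s0Lin_inl, s0Lin_inr, hj]
  · simp only [s0Lin_inl, s0Lin_inr, if_neg hj]
    ring

lemma s0_eB_zero (τ : F) :
    ((s0GL n τ : GL (Fin (n + 1) ⊕ Fin (n + 1)) F) :
      Matrix (Fin (n + 1) ⊕ Fin (n + 1)) (Fin (n + 1) ⊕ Fin (n + 1)) F) *ᵥ eB 0 = eB 0 := by
  rw [s0GL_mulVec]
  funext idx
  rcases idx with j | j <;> by_cases hj : j = 0 <;>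
    simp [s0Lin_inl, s0Lin_inr, eB_inl, eB_inr, hj]

lemma s0_eB (τ : F) (j : Fin (n + 1)) (hj : j ≠ 0) :
    ((s0GL n τ : GL (Fin (n + 1) ⊕ Fin (n + 1)) F) :
      Matrix (Fin (n + 1) ⊕ Fin (n + 1)) (Fin (n + 1) ⊕ Fin (n + 1)) F) *ᵥ eB j = fB j := by
  rw [s0GL_mulVec]
  funext idx
  rcases idx with i | i <;> by_cases hi : i = 0
  · subst hi
    simp [s0Lin_inl, eB_inl, fB_inl, Ne.symm hj]
  · simp [s0Lin_inl, eB_inl, eB_inr, fB_inl, hi]
  · subst hi
    simp [s0Lin_inr, eB_inr, fB_inr, Ne.symm hj]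
  · simp [s0Lin_inr, eB_inl, fB_inr, hi]

lemma s0_pow_four : s0GL n (0 : F) ^ 4 = 1 := by
  apply gl_ext
  intro z
  simp only [pow_succ, pow_zero, one_mul, gl_mul_mulVec, s0GL_mulVec, Units.val_one,
    Matrix.one_mulVec]
  funext idx
  rcases idx with j | j <;> by_cases hj : j = 0 <;>
    simp [s0Lin_inl, s0Lin_inr, hj]

lemma s0_pow_three (h2 : (2 : F) = 0) : s0GL n (1 : F) ^ 3 = 1 := by
  apply gl_ext
  intro z
  simp only [pow_succ, pow_zero, one_mul, gl_mul_mulVec, s0GL_mulVec, Units.val_one,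
    Matrix.one_mulVec]
  funext idx
  rcases idx with j | j <;> by_cases hj : j = 0
  · simp [s0Lin_inl, s0Lin_inr, hj]
  · simp only [s0Lin_inl, s0Lin_inr, if_neg hj]
    linear_combination (- z (Sum.inl j)) * h2
  · simp [s0Lin_inl, s0Lin_inr, hj]
  · simp only [s0Lin_inl, s0Lin_inr, if_neg hj]
    linear_combination (- z (Sum.inr j)) * h2

/-- Case B: prime fields. -/
theorem caseB [Fintype F] (hp : (Fintype.card F).Prime) (τ : F) (r : ℕ) (hr : (r : F) ≠ 0)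
    (hs0 : s0GL n τ ^ r = 1) :
    ∃ a b : GL (Fin (n + 1) ⊕ Fin (n + 1)) F, a ∈ spGL (n + 1) F ∧ b ∈ spGL (n + 1) F ∧
      ∀ v : Fin (n + 1) ⊕ Fin (n + 1) → F, v ∈ transCenters (Subgroup.closure {a, b}) := by
  classical
  set u : GL (Fin (n + 1) ⊕ Fin (n + 1)) F := uS n F with hu
  set w : GL (Fin (n + 1) ⊕ Fin (n + 1)) F := coxGL n F with hw
  set x : GL (Fin (n + 1) ⊕ Fin (n + 1)) F := sympTransGL (n + 1) (eB 0) 1 with hx
  set s0 : GL (Fin (n + 1) ⊕ Fin (n + 1)) F := s0GL n τ with hs0'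
  set s : GL (Fin (n + 1) ⊕ Fin (n + 1)) F := u * s0 * u⁻¹ with hs
  have huS : u ∈ spGL (n + 1) F := uS_mem
  have hwS : w ∈ spGL (n + 1) F := coxGL_mem
  have hxS : x ∈ spGL (n + 1) F := sympTransGL_mem _ _ _
  have hs0S : s0 ∈ spGL (n + 1) F := s0GL_mem τ
  have hsS : s ∈ spGL (n + 1) F :=
    (spGL (n + 1) F).mul_mem ((spGL (n + 1) F).mul_mem huS hs0S) ((spGL (n + 1) F).inv_mem huS)
  have haS : x * s ∈ spGL (n + 1) F := (spGL (n + 1) F).mul_mem hxS hsS
  refine ⟨x * s, w, haS, hwS, ?_⟩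
  set K : Subgroup (GL (Fin (n + 1) ⊕ Fin (n + 1)) F) := Subgroup.closure {x * s, w} with hK
  have haK : x * s ∈ K := Subgroup.subset_closure (by simp)
  have hwK : w ∈ K := Subgroup.subset_closure (by simp)
  have hxs0 : Commute x s0 := by
    have := strans_rule s0 hs0S (eB 0) (1 : F)
    rw [hs0', s0_eB_zero] at this
    exact this.symm
  have hxu : Commute x u := by
    have := strans_rule u huS (eB 0) (1 : F)
    rw [hu, uS_eB_zero] at this
    exact this.symm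
  have hxs : Commute x s := (hxu.mul_right hxs0).mul_right (Commute.inv_right_iff.mpr hxu)
  have hsr : s ^ r = 1 := by
    rw [hs, conj_pow, hs0', hs0, mul_one, mul_inv_cancel]
  have hapow : (x * s) ^ r = sympTransGL (n + 1) (eB 0) ((r : F) * 1) := by
    rw [hxs.mul_pow, hsr, mul_one, hx, strans_pow]
  have hrK : (r : F) * 1 ∈ transScalars K (eB 0) := by
    rw [mem_transScalars, ← hapow]
    exact K.pow_mem haK r
  have htop : transScalars K (eB 0 : Fin (n + 1) ⊕ Fin (n + 1) → F) = ⊤ := by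
    have : Fact (Nat.card F).Prime := ⟨by rw [Nat.card_eq_fintype_card]; exact hp⟩
    refine (AddSubgroup.eq_bot_or_eq_top_of_prime_card _).resolve_left ?_
    intro hbot
    rw [hbot, AddSubgroup.mem_bot, mul_one] at hrK
    exact hr hrK
  have he0 : (eB 0 : Fin (n + 1) ⊕ Fin (n + 1) → F) ∈ transCenters K :=
    mem_transCenters_of_top K _ htop
  have hxK : x ∈ K := he0 1
  have hsK : s ∈ K := by
    have : s = x⁻¹ * (x * s) := by group
    rw [this]
    exact K.mul_mem (K.inv_mem hxK) haK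
  refine cox_all_centers K hwK he0 s hsK hsS (fun j hj =>
    ⟨- eB 0, Submodule.neg_mem _ (eB_mem_blk (0 : Fin (n + 1))), fB j, fB_mem_blk j, neg_ne_zero.mpr (eB_ne_zero 0),
      fB_ne_zero j, ?_⟩)
  have h1 : ((u : GL (Fin (n + 1) ⊕ Fin (n + 1)) F) :
      Matrix (Fin (n + 1) ⊕ Fin (n + 1)) (Fin (n + 1) ⊕ Fin (n + 1)) F) *ᵥ (eB j - eB 0)
      = eB j := by
    rw [Matrix.mulVec_sub, hu, uS_eB j hj, uS_eB_zero]
    abel
  have h2 : ((u⁻¹ : GL (Fin (n + 1) ⊕ Fin (n + 1)) F) :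
      Matrix (Fin (n + 1) ⊕ Fin (n + 1)) (Fin (n + 1) ⊕ Fin (n + 1)) F) *ᵥ eB j
      = eB j - eB 0 := by
    have := gl_inv_mulVec_mulVec u (eB j - eB 0)
    rw [h1] at this
    exact this
  rw [hs, gl_mul_mulVec, gl_mul_mulVec, h2, Matrix.mulVec_sub, hs0', s0_eB τ j hj, s0_eB_zero,
    Matrix.mulVec_sub, hu, uS_fB j hj, uS_eB_zero]
  abel

end Cfsg.Agent.Lib.Helper94.SpGen2
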